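import Cfsg.Agent.L34S.B

/-! Groups with a Sylow 2-subgroup of type `G₂(q)`, `q` odd: the frame `Fg`. -/

set_option autoImplicit false
set_option linter.unusedSectionVars false

namespace Cfsg.Agent.G2S

open Cfsg.Agent.BG Subgroup

structure Fg {G : Type*} [Group G] (S : Subgroup G) (m : ℕ) (φ : ZMod m × ZMod m → G) (w t : G) : Prop where
  syl : SylowIn 2 S ⊤
  add : ∀ u v, φ (u + v) = φ u * φ v
  inj : Function.Injective φ
  hw : ∀ x y, w * φ (x, y) * w⁻¹ = φ (y, x)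
  ht : ∀ v, t * φ v * t⁻¹ = φ (-v)
  w2 : w * w = 1
  t2 : t * t = 1
  wt : w * t = t * w
  mem : ∀ s, s ∈ S ↔ ∃ v, s = φ v ∨ s = φ v * w ∨ s = φ v * t ∨ s = φ v * (w * t)
  card : #S = 4 * m ^ 2

end Cfsg.Agent.G2S
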