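import Cfsg.Agent.G2S.A
import Cfsg.Agent.Gold.Iso

/-! Fusion of involutions in a simple group with a Sylow 2-subgroup of type `G₂(q)`. -/

set_option autoImplicit false
set_option linter.unusedSectionVars false

namespace Cfsg.Agent.G2S

open Cfsg.Agent.BG Cfsg.Agent.CIT Subgroup

variable {G : Type*} [Group G] [Finite G] {S H R : Subgroup G} {m : ℕ} {φ : ZMod m × ZMod m → G}
  {w t a b g k n r s u y : G} {q x : ZMod m} {v : ZMod m × ZMod m}

theorem ext (hR : SylowIn 2 R C1[b]) (hS : IsPGroup 2 S) (hg : IsConj a b) :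
    ∃ k, k * a * k⁻¹ = b ∧ ∀ x ∈ S, x * a = a * x → k * x * k⁻¹ ∈ R := by
  have := Nat.fact_prime_two
  obtain ⟨g, rfl⟩ := isConj_iff.1 hg
  obtain ⟨c, hc, e⟩ := Sylow_Jsub hR (Q := cj g (S ⊓ C1[a])) (by rw [C1_conj]; exact cj_mono g inf_le_right)
    ((hS.to_inf_left).map _)
  refine ⟨c * g, ?_, fun x hx h => e (by rw [← cj_mul]; exact conj_mem_cj _ ⟨hx, mem_cent1.2 h⟩)⟩
  calc _ = c * (g * a * g⁻¹) * c⁻¹ := by group
    _ = _ := by rw [mem_cent1.1 hc]; group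

theorem sq_norm (hS : SylowIn 2 S ⊤) (hH : S ≤ H) (hn : n ∈ N[S]) (h2 : n * n ∈ H) : n ∈ H := by
  have := Nat.fact_prime_two
  obtain ⟨j, hj⟩ : Odd (S.relIndex N[S]) := Nat.odd_iff.2 (Nat.two_dvd_ne_zero.1 (pHall_subl (normG S) le_top hS).not_dvd)
  have : n ^ S.relIndex N[S] ∈ S := by
    simpa [mem_subgroupOf, relIndex] using (S.subgroupOf N[S]).pow_index_mem ⟨n, hn⟩
  rw [hj, pow_succ, pow_mul, pow_two] at this
  exact (mul_mem_cancel_left (pow_mem h2 j)).1 (hH this)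

theorem idx2 (hy : ∀ s ∈ S, s * y * s⁻¹ = y ∨ s * y * s⁻¹ = y⁻¹) (ht : t ∈ S) (e : t * y * t⁻¹ = y⁻¹) (ne : y⁻¹ ≠ y) :
    C1[y].relIndex S = 2 := by
  refine relIndex_eq_two_iff.2 ⟨t, ht, fun b hb => ?_⟩
  have k : ∀ g : G, g ∈ C1[y] ↔ g * y * g⁻¹ = y := fun g => by rw [mem_cent1, mul_inv_eq_iff_eq_mul]
  have e' : b * t * y * (b * t)⁻¹ = (b * y * b⁻¹)⁻¹ := by
    calc _ = b * (t * y * t⁻¹) * b⁻¹ := by group
      _ = _ := by rw [e]; group
  rw [k, k, e']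
  rcases hy b hb with h | h <;> rw [h]
  · exact Or.inr ⟨rfl, ne⟩
  · exact Or.inl ⟨inv_inv y, ne⟩

structure Qd {m : ℕ} (q : ZMod m) : Prop where
  q4 : 4 * q = 0
  q2 : 2 * q ≠ 0
  two : ∀ x : ZMod m, 2 * x = 0 → x = 0 ∨ x = 2 * q

theorem Qd.n2 (hq : Qd q) : (2 : ZMod m) ≠ 0 := fun e => hq.q2 (by rw [e, zero_mul])

namespace Fg
variable (h : Fg S m φ w t)
include h

theorem zero : φ 0 = 1 := by simpa using h.add 0 0
theorem neg (v) : (φ v)⁻¹ = φ (-v) := inv_eq_of_mul_eq_one_right (by rw [← h.add, add_neg_cancel, h.zero])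
theorem cm (u v) : φ u * φ v = φ v * φ u := by rw [← h.add, add_comm, h.add]
theorem h1 (v) : 1 * φ v * 1⁻¹ = φ (id v) := by simp
theorem hw' (v) : w * φ v * w⁻¹ = φ v.swap := h.hw _ _
theorem hwt (v) : w * t * φ v * (w * t)⁻¹ = φ (-v.swap) := by
  calc _ = w * (t * φ v * t⁻¹) * w⁻¹ := by group
    _ = _ := by rw [h.ht, h.hw']; rfl
theorem wt2 : w * t * (w * t) = 1 := by
  calc _ = w * (t * w) * t := by group
    _ = _ := by rw [← h.wt, ← mul_assoc, h.w2, one_mul, h.t2]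
theorem mφ (v) : φ v ∈ S := (h.mem _).2 ⟨v, .inl rfl⟩
theorem mw : w ∈ S := (h.mem _).2 ⟨0, .inr (.inl (by rw [h.zero, one_mul]))⟩
theorem mt : t ∈ S := (h.mem _).2 ⟨0, .inr (.inr (.inl (by rw [h.zero, one_mul])))⟩

section
variable {ρ : ZMod m × ZMod m → ZMod m × ZMod m} (hr : ∀ v, r * φ v * r⁻¹ = φ (ρ v))
include hr
theorem c1 (v u) : φ v * r * φ u * (φ v * r)⁻¹ = φ (ρ u) := by
  calc _ = φ v * (r * φ u * r⁻¹) * (φ v)⁻¹ := by group
    _ = _ := by rw [hr, h.cm]; group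
theorem c2 (v u) : φ u * (φ v * r) * (φ u)⁻¹ = φ (u - ρ u) * (φ v * r) := by
  calc _ = φ u * φ v * (r * φ u * r⁻¹)⁻¹ * r := by group
    _ = _ := by rw [hr, h.neg, ← mul_assoc, ← h.add, ← h.add, ← h.add]; congr 2; abel
theorem sq (r2 : r * r = 1) (v) : φ v * r * (φ v * r) = φ (v + ρ v) := by
  calc _ = φ v * (r * φ v * r⁻¹) * (r * r) := by group
    _ = _ := by rw [hr, r2, h.add, mul_one]
end

theorem sym : Fg S m (fun v => φ (v.1, -v.2)) (w * t) t where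
  syl := h.syl
  add u v := by rw [← h.add]; congr 1; ext <;> simp [add_comm]
  inj u v e := by have := h.inj e; ext <;> simp_all
  hw x y := by rw [h.hwt]; simp
  ht v := by rw [h.ht]; rfl
  w2 := h.wt2
  t2 := h.t2
  wt := by rw [← mul_assoc, ← h.wt]
  mem s := by
    rw [h.mem, mul_assoc w, h.t2, mul_one]
    exact ⟨fun ⟨v, e⟩ => ⟨(v.1, -v.2), by simpa using by tauto⟩, fun ⟨v, e⟩ => ⟨(v.1, -v.2), by tauto⟩⟩
  card := h.card

theorem d1 (hs : s ∈ S) (x) : s * φ (x, x) * s⁻¹ = φ (x, x) ∨ s * φ (x, x) * s⁻¹ = (φ (x, x))⁻¹ := by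
  rw [h.neg]
  obtain ⟨v, rfl | rfl | rfl | rfl⟩ := (h.mem s).1 hs
  · left; rw [h.cm]; group
  · exact .inl (h.c1 h.hw' _ _)
  · exact .inr (h.c1 h.ht _ _)
  · exact .inr (h.c1 h.hwt _ _)

theorem sqA (hs : s ∈ S) : ∃ v, s * s = φ v := by
  obtain ⟨v, rfl | rfl | rfl | rfl⟩ := (h.mem s).1 hs
  exacts [⟨_, (h.add _ _).symm⟩, ⟨_, h.sq h.hw' h.w2 _⟩, ⟨_, h.sq h.ht h.t2 _⟩, ⟨_, h.sq h.hwt h.wt2 _⟩]

theorem one (e : φ v = 1) : v = 0 := h.inj (e.trans h.zero.symm)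

theorem cw (e : φ v * w * (φ v * w) = 1) : φ (v.1, 0) * w * (φ (v.1, 0))⁻¹ = φ v * w := by
  have := h.c2 h.hw' 0 (v.1, 0)
  rw [h.zero, one_mul] at this
  have e2 := congrArg Prod.fst (h.one ((h.sq h.hw' h.w2 v).symm.trans e))
  rw [this]; congr 2; ext <;> simp
  simp at e2; linear_combination -e2

variable (hq : Qd q)
include hq

theorem zi : (φ (2 * q, 2 * q))⁻¹ = φ (2 * q, 2 * q) := by
  rw [h.neg]; congr 1; ext <;> simp <;> linear_combination -hq.q4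
theorem zz : φ (2 * q, 2 * q) * φ (2 * q, 2 * q) = 1 := by nth_rw 1 [← h.zi hq]; simp
theorem z1 : φ (2 * q, 2 * q) ≠ 1 := fun e => hq.q2 (congrArg Prod.fst (h.one e))
theorem zc (hs : s ∈ S) : s * φ (2 * q, 2 * q) = φ (2 * q, 2 * q) * s := by
  have := h.d1 hs (2 * q)
  rw [h.zi hq, or_self, mul_inv_eq_iff_eq_mul] at this
  exact this

theorem invA (e : φ v * φ v = 1) (n1 : φ v ≠ 1) : φ v = φ (2 * q, 2 * q) ∨ IsConj (φ (2 * q, 0)) (φ v) := by
  obtain ⟨x, y⟩ := v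
  have e2 := h.one ((h.add _ _).trans e)
  rcases hq.two x (by simpa [two_mul] using congrArg Prod.fst e2) with rfl | rfl <;>
  rcases hq.two y (by simpa [two_mul] using congrArg Prod.snd e2) with rfl | rfl
  exacts [absurd h.zero n1, .inr (isConj_iff.2 ⟨w, h.hw _ _⟩), .inr (IsConj.refl _), .inl rfl]

theorem Z1 (hs : s ∈ S) (e : s * s = 1) (n1 : s ≠ 1) (nz : s ≠ φ (2 * q, 2 * q)) : IsConj s (φ (2 * q, 2 * q) * s) := by
  obtain ⟨⟨x, y⟩, rfl | rfl | rfl | rfl⟩ := (h.mem s).1 hs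
  · have e2 := h.one ((h.add _ _).trans e)
    refine isConj_iff.2 ⟨w, ?_⟩
    rw [h.hw, ← h.add]
    rcases hq.two x (by simpa [two_mul] using congrArg Prod.fst e2) with rfl | rfl <;>
    rcases hq.two y (by simpa [two_mul] using congrArg Prod.snd e2) with rfl | rfl
    · exact absurd h.zero n1
    · congr 1; ext <;> simp; linear_combination -hq.q4
    · congr 1; ext <;> simp; linear_combination -hq.q4
    · exact absurd rfl nz
  · refine isConj_iff.2 ⟨φ (2 * q, 0), (h.c2 h.hw' _ _).trans ?_⟩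
    congr 2; ext <;> simp; linear_combination -hq.q4
  · refine isConj_iff.2 ⟨φ (q, q), (h.c2 h.ht _ _).trans ?_⟩
    congr 2; ext <;> simp [two_mul]
  · refine isConj_iff.2 ⟨φ (2 * q, 0), (h.c2 h.hwt _ _).trans ?_⟩
    congr 2; ext <;> simp

theorem ns [IsSimpleGroup G] : ¬ Group.IsSolvable (⊤ : Subgroup G) := fun e => by
  have := IsSimpleGroup.comm_iff_isSolvable.2 (Group.isSolvable_of_surjective (f := (⊤ : Subgroup G).subtype) fun g => ⟨⟨g, trivial⟩, rfl⟩)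
  have e2 := h.ht (1, 0)
  rw [this t, mul_inv_cancel_right] at e2
  have := congrArg Prod.fst (h.inj e2)
  exact hq.n2 (by simp at this; linear_combination this)

theorem no2 [IsSimpleGroup G] (H : Subgroup G) : H.index ≠ 2 := fun e => by
  rcases IsSimpleGroup.eq_bot_or_eq_top_of_normal H (normal_of_index_eq_two e) with rfl | rfl
  · exact h.ns hq (abelian_sol (cyclic_abelian (prime_cyclic (by rw [card_top, ← index_bot, e]; exact Nat.prime_two))))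
  · simp at e

theorem sqz (hk : k * u * k⁻¹ = φ (2 * q, 2 * q)) (nz : u ≠ φ (2 * q, 2 * q)) (e : y * y = φ (2 * q, 2 * q))
    (hy : k * y * k⁻¹ ∈ S) : IsConj (φ (2 * q, 0)) (φ (2 * q, 2 * q)) := by
  obtain ⟨v, hv⟩ := h.sqA hy
  have e2 : φ v = k * φ (2 * q, 2 * q) * k⁻¹ := by rw [← hv, ← e]; group
  rcases h.invA hq (v := v) (by rw [e2, conj_mul, h.zz hq]; group) (by rw [e2]; simpa using h.z1 hq) with e3 | e3
  · rw [e2, ← hk] at e3
    exact absurd (hk.symm.trans (by simpa using e3) |> fun e4 : φ (2 * q, 2 * q) = u => e4.symm) nz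
  · exact e3.trans (isConj_iff.2 ⟨k, e2.symm⟩).symm

theorem za [IsSimpleGroup G] : IsConj (φ (2 * q, 0)) (φ (2 * q, 2 * q)) := by
  have := Nat.fact_prime_two
  by_contra! n
  refine Gold.zstar (h.ns hq) h.syl (h.mφ _) (h.zz hq) (h.z1 hq) fun g hu => by_contra fun nz => n ?_
  have c : IsConj (g * φ (2 * q, 2 * q) * g⁻¹) (φ (2 * q, 2 * q)) := (isConj_iff.2 ⟨g, rfl⟩).symm
  have uu : g * φ (2 * q, 2 * q) * g⁻¹ * (g * φ (2 * q, 2 * q) * g⁻¹) = 1 := by rw [conj_mul, h.zz hq]; group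
  have u1 : g * φ (2 * q, 2 * q) * g⁻¹ ≠ 1 := by simpa using h.z1 hq
  generalize g * φ (2 * q, 2 * q) * g⁻¹ = u at *
  obtain ⟨k, hk, H⟩ := ext (pHall_subl (fun s hs => mem_cent1.2 (h.zc hq hs)) le_top h.syl) h.syl.pg c
  obtain ⟨v, rfl | rfl | rfl | rfl⟩ := (h.mem u).1 hu
  · exact ((h.invA hq uu u1).resolve_left nz).trans c
  · refine h.sqz hq hk nz (y := φ (q, q)) (by rw [← h.add]; simp [two_mul]) (H _ (h.mφ _) ?_)
    exact (mul_inv_eq_iff_eq_mul.1 (h.c1 h.hw' v (q, q))).symm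
  · have e : φ (2 * q, 0) * (φ v * t) = φ v * t * φ (2 * q, 0) := by
      refine (mul_inv_eq_iff_eq_mul.1 ((h.c1 h.ht v _).trans ?_)).symm
      congr 1; ext <;> simp; linear_combination -hq.q4
    have ca : IsConj (φ (2 * q, 0)) (k * φ (2 * q, 0) * k⁻¹) := isConj_iff.2 ⟨k, rfl⟩
    by_cases e2 : k * φ (2 * q, 0) * k⁻¹ = φ (2 * q, 2 * q)
    · exact e2 ▸ ca
    have := h.Z1 hq (H _ (h.mφ _) e) (by
        rw [conj_mul, ← h.add, show ((2 * q, 0) + (2 * q, 0) : ZMod m × ZMod m) = 0 by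
          ext <;> simp; linear_combination hq.q4, h.zero]; group)
      (by simpa using fun e => hq.q2 (congrArg Prod.fst (h.one e))) e2
    rw [← hk, conj_mul, ← e] at this
    refine ((ca.trans this).trans (isConj_iff.2 ⟨k, rfl⟩).symm).trans (.trans (.symm (isConj_iff.2 ⟨φ (q, 0), ?_⟩)) c)
    rw [h.c2 h.ht]; congr 2; ext <;> simp [two_mul]
  · refine h.sqz hq hk nz (y := φ (q, -q)) (by
      rw [← h.add]; congr 1; ext <;> simp [two_mul]; linear_combination -hq.q4) (H _ (h.mφ _) ?_)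
    exact (mul_inv_eq_iff_eq_mul.1 ((h.c1 h.hwt v (q, -q)).trans (by simp))).symm

theorem invZ [IsSimpleGroup G] (e : φ v * φ v = 1) (n1 : φ v ≠ 1) : IsConj (φ v) (φ (2 * q, 2 * q)) := by
  rcases h.invA hq e n1 with e | e
  exacts [e ▸ IsConj.refl _, e.symm.trans (h.za hq)]

omit hq in
theorem nx (hx : 2 * x ≠ 0) : (φ (x, x))⁻¹ ≠ φ (x, x) := fun e => by
  have := congrArg Prod.fst (h.inj ((h.neg _).symm.trans e))
  exact hx (by simp at this; linear_combination -this)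

theorem TT [IsSimpleGroup G] (hu : orderOf u = 2) : IsConj u (φ (2 * q, 2 * q)) ∨ IsConj u w := by
  have := Nat.fact_prime_two
  have nx := h.nx (x := 1) (by simpa using hq.n2)
  obtain ⟨k, -, hk⟩ := Sylow_Jsub h.syl le_top (two_of_sq (sq_of_ord hu)).zpowers
  obtain ⟨P, hP⟩ := sylow_of_sylowIn_top h.syl
  obtain ⟨g, g1, g2⟩ := Invol.thompson_transfer (h.no2 hq) P (Q := C1[φ (1, 1)])
    (hP ▸ idx2 (fun s hs => h.d1 hs 1) h.mt ((h.ht _).trans (h.neg _).symm) nx) (u := k * u * k⁻¹)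
    (by rw [conj_mul, sq_of_ord hu]; group) (hP ▸ hk (conj_mem_cj k (mem_zpowers u)))
  have c : IsConj u (g * (k * u * k⁻¹) * g⁻¹) := (isConj_iff.2 ⟨k, rfl⟩).trans (isConj_iff.2 ⟨g, rfl⟩)
  have o : orderOf (g * (k * u * k⁻¹) * g⁻¹) = 2 := by rw [orderOf_conj', orderOf_conj', hu]
  generalize g * (k * u * k⁻¹) * g⁻¹ = s at *
  rw [mem_cent1, ← mul_inv_eq_iff_eq_mul] at g2
  obtain ⟨v, rfl | rfl | rfl | rfl⟩ := (h.mem s).1 (hP ▸ g1)
  · exact .inl (c.trans (h.invZ hq (sq_of_ord o) (ne_one_of_ord o)))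
  · exact .inr (c.trans (isConj_iff.2 ⟨_, h.cw (sq_of_ord o)⟩).symm)
  · exact absurd ((h.neg _).trans ((h.c1 h.ht _ _).symm.trans g2)) nx
  · exact absurd ((h.neg _).trans ((h.c1 h.hwt _ _).symm.trans g2)) nx

end Fg

/-- The frame in `Γ = C(z)/O(C(z))`: `z = φ (2q, 2q)` central, `Q₁`, `Q₂` the two generalized quaternion groups. -/
structure Gm (S : Subgroup G) (m : ℕ) (φ : ZMod m × ZMod m → G) (w t : G) (q : ZMod m) (Q₁ Q₂ : Subgroup G) : Prop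
    extends Fg S m φ w t where
  qd : Qd q
  hm : ∃ n, m = 2 ^ (n + 2) ∧ q = 2 ^ n
  m1 : ∀ s, s ∈ Q₁ ↔ ∃ x, s = φ (x, x) ∨ s = φ (x + 2 * q, x) * (w * t)
  m2 : ∀ s, s ∈ Q₂ ↔ ∃ x, s = φ (x, -x) ∨ s = φ (x + 2 * q, -x) * w
  zcen : ∀ g, g * φ (2 * q, 2 * q) = φ (2 * q, 2 * q) * g
  hO : oddCore G = ⊥
  fw : IsConj w (φ (2 * q, 0))
  fwt : IsConj (w * t) (φ (2 * q, 0))

theorem Gm.sym {Q₁ Q₂ : Subgroup G} (h : Gm S m φ w t q Q₁ Q₂) : Gm S m (fun v => φ (v.1, -v.2)) (w * t) t q Q₂ Q₁ where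
  toFg := h.toFg.sym
  qd := h.qd
  hm := h.hm
  m1 s := by rw [h.m2, mul_assoc w, h.t2, mul_one]
  m2 s := by simpa using h.m1 s
  zcen g := by simpa [show -(2 * q) = 2 * q by linear_combination -h.qd.q4] using h.zcen g
  hO := h.hO
  fw := by simpa using h.fwt
  fwt := by simpa [mul_assoc, h.t2] using h.fw

end Cfsg.Agent.G2S
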