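import Cfsg.Agent.G2S.B
import Cfsg.Agent.Solv.Core

/-! From the simple group to the frame `Gm` in `C(z)/O(C(z))`. -/

set_option autoImplicit false
set_option linter.unusedSectionVars false

namespace Cfsg.Agent.G2S

open Cfsg.Agent.BG Cfsg.Agent.CIT Subgroup

variable {G : Type*} [Group G] [Finite G] {S H R : Subgroup G} {m : ℕ} {φ : ZMod m × ZMod m → G}
  {w t a b g k n r s u y : G} {q x : ZMod m} {v : ZMod m × ZMod m}

theorem qd_pow (n : ℕ) : Qd (2 ^ n : ZMod (2 ^ (n + 2))) where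
  q4 := by
    have := ZMod.natCast_self (2 ^ (n + 2))
    push_cast at this
    linear_combination this
  q2 e := by
    have : ((2 ^ (n + 1) : ℕ) : ZMod (2 ^ (n + 2))) = 0 := by push_cast; linear_combination e
    exact absurd (Nat.le_of_dvd (by positivity) ((ZMod.natCast_eq_zero_iff _ _).1 this))
      (not_le.2 (Nat.pow_lt_pow_right (by decide) (by omega)))
  two x e := by
    refine ((ZMod.neg_eq_self_iff x).1 (by linear_combination -e)).imp_right fun e => ?_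
    rw [← ZMod.natCast_zmod_val x, show x.val = 2 * 2 ^ n by have := pow_add 2 n 2; omega]
    push_cast; rfl

namespace Fg
variable (h : Fg S m φ w t)
include h

theorem subOf (hH : S ≤ H) : Fg (S.subgroupOf H) m (fun v => ⟨φ v, hH (h.mφ v)⟩) ⟨w, hH h.mw⟩ ⟨t, hH h.mt⟩ where
  syl := by
    have := (pHall_map_inj (π := {2}) (H := S.subgroupOf H) (M := ⊤) H.subtype_injective).1
    rw [map_subtype_top, map_subgroupOf_eq_of_le hH] at this
    exact this (pHall_subl hH le_top h.syl)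
  add u v := Subtype.ext (h.add u v)
  inj u v e := h.inj (congrArg Subtype.val e)
  hw x y := Subtype.ext (h.hw x y)
  ht v := Subtype.ext (h.ht v)
  w2 := Subtype.ext h.w2
  t2 := Subtype.ext h.t2
  wt := Subtype.ext h.wt
  mem s := by simp only [mem_subgroupOf, h.mem, Subtype.ext_iff, coe_mul]
  card := (card_subgroupOf hH).trans h.card

theorem map {Γ : Type*} [Group Γ] [Finite Γ] (f : G →* Γ) (hf : Function.Surjective f) (hk : ∀ s ∈ S, f s = 1 → s = 1) :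
    Fg (S.map f) m (fun v => f (φ v)) (f w) (f t) where
  syl := by simpa [map_top_of_surjective f hf] using pHall_map f h.syl
  add u v := by rw [h.add, map_mul]
  inj u v e := h.inj (mul_inv_eq_one.1 (hk _ (mul_mem (h.mφ u) (inv_mem (h.mφ v))) (by simpa [mul_inv_eq_one] using e)))
  hw x y := by simpa using congrArg f (h.hw x y)
  ht v := by simpa using congrArg f (h.ht v)
  w2 := by rw [← map_mul, h.w2, map_one]
  t2 := by rw [← map_mul, h.t2, map_one]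
  wt := by rw [← map_mul, h.wt, map_mul]
  mem s := by
    simp only [← map_mul, mem_map]
    refine ⟨?_, fun ⟨v, e⟩ => ?_⟩
    · rintro ⟨s, hs, rfl⟩
      obtain ⟨v, e⟩ := (h.mem s).1 hs
      exact ⟨v, by rcases e with e | e | e | e <;> simp [e]⟩
    · rcases e with rfl | rfl | rfl | rfl
      exacts [⟨_, h.mφ v, rfl⟩, ⟨_, mul_mem (h.mφ v) h.mw, rfl⟩, ⟨_, mul_mem (h.mφ v) h.mt, rfl⟩,
        ⟨_, mul_mem (h.mφ v) (mul_mem h.mw h.mt), rfl⟩]
  card := by
    rw [← h.card]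
    exact (Nat.card_eq_of_bijective _ ⟨(injective_iff_map_eq_one (f.subgroupMap S)).2 fun s e =>
      Subtype.ext (hk s s.2 (congrArg Subtype.val e)), f.subgroupMap_surjective S⟩).symm

variable (hq : Qd q)
include hq

theorem exQ : ∃ Q : Subgroup G, ∀ s, s ∈ Q ↔ ∃ x, s = φ (x, x) ∨ s = φ (x + 2 * q, x) * (w * t) := by
  have mv : ∀ v, w * t * φ v = φ (-v.swap) * (w * t) := fun v => mul_inv_eq_iff_eq_mul.1 (h.hwt v)
  have bb : ∀ x y, φ (x + 2 * q, x) * (w * t) * (φ (y + 2 * q, y) * (w * t)) = φ (x - y + 2 * q, x - y + 2 * q) := fun x y => by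
    rw [mul_assoc, ← mul_assoc (w * t), mv, mul_assoc, h.wt2, mul_one, ← h.add]
    congr 1; ext <;> simp <;> [ring; linear_combination -hq.q4]
  refine ⟨⟨⟨⟨{s | ∃ x, s = φ (x, x) ∨ s = φ (x + 2 * q, x) * (w * t)}, ?_⟩, 0, .inl h.zero.symm⟩, ?_⟩, fun _ => Iff.rfl⟩
  · rintro _ _ ⟨x, rfl | rfl⟩ ⟨y, rfl | rfl⟩
    · exact ⟨x + y, .inl (h.add _ _).symm⟩
    · exact ⟨x + y, .inr (by rw [← mul_assoc, ← h.add]; congr 2; ext <;> simp; ring)⟩
    · exact ⟨x - y, .inr (by rw [mul_assoc, mv, ← mul_assoc, ← h.add]; congr 2; ext <;> simp <;> ring)⟩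
    · exact ⟨_, .inl (bb x y)⟩
  · rintro _ ⟨x, rfl | rfl⟩
    · exact ⟨-x, .inl (h.neg _)⟩
    · refine ⟨x + 2 * q, .inr (inv_eq_of_mul_eq_one_right ((bb _ _).trans ?_))⟩
      rw [← h.zero]; congr 1; ext <;> simp

theorem toA (c : IsConj u (φ (2 * q, 2 * q))) (nz : u ≠ φ (2 * q, 2 * q)) (hy : y ∈ S) (e : y * u = u * y)
    (e' : y * y = φ (2 * q, 2 * q)) : ∃ g, g * u * g⁻¹ = φ (2 * q, 2 * q) ∧ g * φ (2 * q, 2 * q) * g⁻¹ = φ (2 * q, 0) := by
  obtain ⟨k, hk, H⟩ := ext (pHall_subl (fun s hs => mem_cent1.2 (h.zc hq hs)) le_top h.syl) h.syl.pg c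
  obtain ⟨⟨x, x'⟩, hv⟩ := h.sqA (H y hy e)
  have e2 : φ (x, x') = k * φ (2 * q, 2 * q) * k⁻¹ := by rw [← hv, ← e']; group
  have e3 := h.one ((h.add _ _).trans (show φ (x, x') * φ (x, x') = 1 by rw [e2, conj_mul, h.zz hq]; group))
  rcases hq.two x (by simpa [two_mul] using congrArg Prod.fst e3) with rfl | rfl <;>
  rcases hq.two x' (by simpa [two_mul] using congrArg Prod.snd e3) with rfl | rfl
  · exact absurd (by simpa using (h.zero.symm.trans e2).symm) (h.z1 hq)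
  · refine ⟨w * k, ?_, ?_⟩
    · calc _ = w * (k * u * k⁻¹) * w⁻¹ := by group
        _ = _ := by rw [hk, h.hw]
    · calc _ = w * (k * φ (2 * q, 2 * q) * k⁻¹) * w⁻¹ := by group
        _ = _ := by rw [← e2, h.hw]
  · exact ⟨k, hk, e2.symm⟩
  · exact absurd (by simpa using hk.trans e2) nz

theorem cenS (hs : s ∈ S) (s2 : orderOf s = 2) (c : ∀ r ∈ S, r * s = s * r) : s = φ (2 * q, 2 * q) := by
  by_contra n
  have e : ∀ {ρ : ZMod m × ZMod m → ZMod m × ZMod m} {r : G} (hr : ∀ v, r * φ v * r⁻¹ = φ (ρ v)) v, s = φ v * r → ρ (1, 0) = (1, 0) :=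
    fun hr v e => h.inj ((h.c1 hr v _).symm.trans (by rw [← e, ← c _ (h.mφ _), mul_inv_cancel_right]))
  obtain ⟨⟨x, y⟩, e0 | e0 | e0 | e0⟩ := (h.mem s).1 hs
  · have e2 := h.one ((h.add _ _).trans (e0 ▸ sq_of_ord s2))
    have e3 := h.inj ((h.hw x y).symm.trans (by rw [← e0, c w h.mw, mul_inv_cancel_right, e0]) : φ (y, x) = φ (x, y))
    obtain rfl : y = x := congrArg Prod.fst e3
    rcases hq.two y (by simpa [two_mul] using congrArg Prod.fst e2) with rfl | rfl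
    exacts [ne_one_of_ord s2 (e0.trans h.zero), n e0]
  · exact hq.n2 (by have := congrArg Prod.fst (e h.hw' _ e0); simp at this; linear_combination -2 * this)
  · exact hq.n2 (by have := congrArg Prod.fst (e h.ht _ e0); simp at this; linear_combination -this)
  · exact hq.n2 (by have := congrArg Prod.fst (e h.hwt _ e0); simp at this; linear_combination -2 * this)

end Fg

theorem exists_gm {n : ℕ} {φ : ZMod (2 ^ (n + 2)) × ZMod (2 ^ (n + 2)) → G} (h : Fg S (2 ^ (n + 2)) φ w t)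
    (h1 : ∀ x y : G, orderOf x = 2 → orderOf y = 2 → IsConj x y) {z : G} (hz : z = φ (2 * 2 ^ n, 2 * 2 ^ n)) :
    ∃ S' φ' w' t' Q₁ Q₂, Gm (G := C1[z] ⧸ oddCore C1[z]) S' (2 ^ (n + 2)) φ' w' t' (2 ^ n) Q₁ Q₂ := by
  subst hz
  have hq := qd_pow n
  generalize hq' : (2 : ZMod (2 ^ (n + 2))) ^ n = q at hq ⊢
  have SH : S ≤ C1[φ (2 * q, 2 * q)] := fun s hs => mem_cent1.2 (h.zc hq hs)
  have o : ∀ {u : G}, u * u = 1 → u ≠ 1 → IsConj u (φ (2 * q, 2 * q)) := fun a b =>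
    h1 _ _ (Invol.orderOf_two_iff.2 ⟨a, b⟩) (Invol.orderOf_two_iff.2 ⟨h.zz hq, h.z1 hq⟩)
  have qq : φ (q, q) * φ (q, q) = φ (2 * q, 2 * q) := by rw [← h.add]; simp [two_mul]
  obtain ⟨k, k1, k2⟩ := h.toA hq (u := φ (2 * q, 0)) (o (by
      rw [← h.add, ← h.zero]; congr 1; ext <;> simp; linear_combination hq.q4) fun e => hq.q2 (congrArg Prod.fst (h.one e)))
    (fun e => hq.q2 (congrArg Prod.snd (h.inj e)).symm) (h.mφ (q, q)) (h.cm _ _) qq
  have F : ∀ {r y : G} {ρ : ZMod (2 ^ (n + 2)) × ZMod (2 ^ (n + 2)) → _} (hr : ∀ v, r * φ v * r⁻¹ = φ (ρ v)) (rS : r ∈ S),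
      (ρ (1, 0)).1 = 0 → r * r = 1 → y ∈ S → y * r = r * y → y * y = φ (2 * q, 2 * q) →
      IsConj (⟨r, SH rS⟩ : C1[φ (2 * q, 2 * q)]) ⟨φ (2 * q, 0), SH (h.mφ _)⟩ := fun {r y ρ} hr rS e r2 yS c yy => by
    have nA : ∀ v, r ≠ φ v := fun v e' => hq.n2 (by
      have := congrArg Prod.fst (h.inj ((hr (1, 0)).symm.trans (by rw [e', h.cm, mul_inv_cancel_right])))
      rw [e] at this
      linear_combination -2 * this)
    obtain ⟨g, g1, g2⟩ := h.toA hq (o r2 (h.zero ▸ nA 0)) (nA _) yS c yy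
    refine isConj_iff.2 ⟨⟨k * g, mem_cent1.2 (mul_inv_eq_iff_eq_mul.1 ?_)⟩, Subtype.ext ?_⟩
    · calc _ = k * (g * φ (2 * q, 2 * q) * g⁻¹) * k⁻¹ := by group
        _ = _ := by rw [g2, k1]
    · calc _ = k * (g * r * g⁻¹) * k⁻¹ := by simp [mul_assoc]
        _ = _ := by rw [g1, k2]
  have h' := (h.subOf SH).map (QuotientGroup.mk' (oddCore _)) (QuotientGroup.mk'_surjective _) fun s hs e => by
    have := Nat.fact_prime_two
    obtain ⟨j, hj⟩ := h.syl.pg ⟨s, hs⟩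
    have o := Invol.odd_orderOf_of_mem Invol.odd_oddCore ((QuotientGroup.eq_one_iff _).1 e)
    exact orderOf_eq_one_iff.1 ((Nat.coprime_self _).1 (Nat.Coprime.coprime_dvd_right
      (orderOf_dvd_of_pow_eq_one (Subtype.ext (congrArg Subtype.val hj : _) : s ^ 2 ^ j = 1)) ((Nat.coprime_two_right.2 o).pow_right j)))
  obtain ⟨Q₁, m1⟩ := h'.exQ hq
  obtain ⟨Q₂, m2⟩ := h'.sym.exQ hq
  refine ⟨_, _, _, _, Q₁, Q₂, h', hq, ⟨n, rfl, hq'.symm⟩, m1, fun s => by rw [m2, mul_assoc, h'.t2, mul_one], fun g => ?_,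
    Solv.pPrimeCore_quotient_pPrimeCore 2 _, (QuotientGroup.mk' _).map_isConj (F h.hw' h.mw rfl h.w2 (h.mφ (q, q))
      (mul_inv_eq_iff_eq_mul.1 (h.hw q q)).symm qq), ?_⟩
  · obtain ⟨g, rfl⟩ := QuotientGroup.mk'_surjective _ g
    rw [← map_mul, ← map_mul]
    exact congrArg _ (Subtype.ext (mem_cent1.1 g.2))
  · rw [← map_mul]
    exact (QuotientGroup.mk' _).map_isConj (F h.hwt (mul_mem h.mw h.mt) (by simp) h.wt2 (h.mφ (q, -q))
      (mul_inv_eq_iff_eq_mul.1 ((h.hwt _).trans (by simp))).symm (by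
        rw [← h.add]; congr 1; ext <;> simp [two_mul]; linear_combination -hq.q4))

end Cfsg.Agent.G2S
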