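import Cfsg.Agent.G2S.B

/-! The frame `Gm`: the classes of `φ (q, q)` and `φ (q, -q)` differ (`f2`), all elements of order 4 of `Q₁` are fused (`f3`, `f4`),
`sub`, `cS`, `sylC`, `nQ`, and `Q₁` is strongly closed in `S` (`sc`). -/

set_option autoImplicit false
set_option linter.dupNamespace false
set_option linter.unusedSectionVars false
set_option linter.unusedVariables false

namespace Cfsg.Agent.G2S

open Cfsg.Agent.BG Subgroup

variable {G : Type*} [Group G] [Finite G] {S Q₁ Q₂ N : Subgroup G} {m : ℕ} {φ : ZMod m × ZMod m → G}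
  {w t g k s y : G} {q a b c d : ZMod m}

namespace Gm
variable (h : Gm S m φ w t q Q₁ Q₂)
include h

theorem w2_mul (a b c d : ZMod m) : φ (a, b) * φ (c, d) = φ (a + c, b + d) := (h.add _ _).symm
theorem w2_inv (a b : ZMod m) : (φ (a, b))⁻¹ = φ (-a, -b) := h.neg _
theorem w2_inj (e : φ (a, b) = φ (c, d)) : a = c ∧ b = d := Prod.ext_iff.1 (h.inj e)
omit h in
theorem w2_pe (e : a = c) (e' : b = d) : φ (a, b) = φ (c, d) := by rw [e, e']
theorem w2_zg (g : G) : g * φ (2 * q, 2 * q) * g⁻¹ = φ (2 * q, 2 * q) := by rw [h.zcen]; group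
theorem w2_d (x) : φ (x, x) ∈ Q₁ := (h.m1 _).2 ⟨x, .inl rfl⟩
theorem w2_b (x) : φ (x + 2 * q, x) * (w * t) ∈ Q₁ := (h.m1 _).2 ⟨x, .inr rfl⟩
theorem w2_b2 (x) : φ (x + 2 * q, x) * (w * t) * (φ (x + 2 * q, x) * (w * t)) = φ (2 * q, 2 * q) :=
  (h.sq h.hwt h.wt2 _).trans (w2_pe (by simp) (by simp; linear_combination -h.qd.q4))
theorem w2_db (x) : φ (x, x) = φ (x + 2 * q, x) * (w * t) * (φ (0 + 2 * q, 0) * (w * t))⁻¹ := by
  rw [mul_inv_rev, ← mul_assoc, mul_inv_cancel_right, h.w2_inv, h.w2_mul]; exact w2_pe (by ring) (by ring)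
theorem w2_one : (1 : ZMod m) ≠ 0 := fun e => h.qd.n2 (by linear_combination 2 * e)

theorem mA (e : φ (a, b) ∈ Q₁) : a = b := by
  obtain ⟨x, e | e⟩ := (h.m1 _).1 e
  · exact (h.w2_inj e).1.trans (h.w2_inj e).2.symm
  · have e1 := h.c1 h.hwt (x + 2 * q, x) (1, 0)
    rw [← e, h.cm, mul_inv_cancel_right] at e1
    exact absurd (by simpa using congrArg Prod.fst (h.inj e1)) h.w2_one

theorem Q1S : Q₁ ≤ S := fun s hs => by
  obtain ⟨x, rfl | rfl⟩ := (h.m1 _).1 hs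
  exacts [h.mφ _, mul_mem (h.mφ _) (mul_mem h.mw h.mt)]

theorem nQ : S ≤ N[Q₁] := by
  have key : ∀ r, (∀ x, r * φ (x, x) * r⁻¹ ∈ Q₁) → (∀ x, r * (φ (x + 2 * q, x) * (w * t)) * r⁻¹ ∈ Q₁) → r ∈ N[Q₁] :=
    fun r h1 h2 => mem_norm_of_cj_le (by
      rintro _ ⟨s, hs, rfl⟩
      obtain ⟨x, rfl | rfl⟩ := (h.m1 _).1 hs
      exacts [h1 x, h2 x])
  have hφ : ∀ v, φ v ∈ N[Q₁] := fun ⟨a, b⟩ => key _ (fun x => by rw [h.cm, mul_inv_cancel_right]; exact h.w2_d x) fun x => by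
    rw [h.c2 h.hwt, ← mul_assoc, ← h.add]
    convert h.w2_b (x + a + b) using 3
    ext <;> simp <;> ring
  have hw : w ∈ N[Q₁] := key _ (fun x => by rw [h.hw]; exact h.w2_d x) fun x => by
    rw [show w * (φ (x + 2 * q, x) * (w * t)) * w⁻¹ = w * φ (x + 2 * q, x) * w⁻¹ * (w * (w * t) * w⁻¹) by group, h.hw,
      show w * (w * t) * w⁻¹ = w * t by nth_rw 1 [h.wt]; group]
    convert h.w2_b (x + 2 * q) using 4
    linear_combination -h.qd.q4
  have ht : t ∈ N[Q₁] := key _ (fun x => by rw [h.ht]; exact h.w2_d (-x)) fun x => by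
    rw [show t * (φ (x + 2 * q, x) * (w * t)) * t⁻¹ = t * φ (x + 2 * q, x) * t⁻¹ * (t * w) by group, h.ht, ← h.wt]
    convert h.w2_b (-x) using 3
    ext <;> simp
    linear_combination -h.qd.q4
  intro s hs
  obtain ⟨v, rfl | rfl | rfl | rfl⟩ := (h.mem s).1 hs
  exacts [hφ v, mul_mem (hφ v) hw, mul_mem (hφ v) ht, mul_mem (hφ v) (mul_mem hw ht)]

theorem w2_cw (a b c d : ZMod m) : φ (a, b) * (w * t) * (φ (c, d) * w) * (φ (a, b) * (w * t))⁻¹ =
    φ (a - b - d, b - a - c) * w := by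
  have e : w * t * w * (w * t)⁻¹ = w := by rw [mul_assoc w t, ← h.wt]; group
  calc _ = φ (a, b) * (w * t * φ (c, d) * (w * t)⁻¹ * (w * t * w * (w * t)⁻¹)) * (φ (a, b))⁻¹ := by group
    _ = _ := by
      rw [h.hwt, e, h.c2 h.hw', ← mul_assoc, ← h.add]; congr 2; ext <;> simp <;> ring

theorem cS : S ⊓ C[Q₂] = Q₁ := by
  refine le_antisymm (fun s hs0 => ?_) (le_inf h.Q1S (le_cent_iff.2 fun s hs r hr => mul_inv_eq_iff_eq_mul.1 ?_))
  · obtain ⟨hs, hc⟩ := mem_inf.1 hs0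
    clear hs0
    have e1 := conj_eq_of_cent hc ((h.m2 _).2 ⟨1, .inl rfl⟩)
    have e2 := conj_eq_of_cent hc ((h.m2 _).2 ⟨0, .inr rfl⟩)
    obtain ⟨⟨a, b⟩, rfl | rfl | rfl | rfl⟩ := (h.mem s).1 hs
    · rw [h.c2 h.hw', mul_eq_right] at e2
      have : a = b := by simpa [sub_eq_zero] using congrArg Prod.fst (h.one e2)
      exact this ▸ h.w2_d a
    · have := congrArg Prod.fst (h.inj ((h.c1 h.hw' _ _).symm.trans e1))
      exact absurd (by simp at this; linear_combination -this) h.qd.n2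
    · have := congrArg Prod.fst (h.inj ((h.c1 h.ht _ _).symm.trans e1))
      exact absurd (by simp at this; linear_combination -this) h.qd.n2
    · rw [h.w2_cw, mul_left_inj] at e2
      rw [show a = b + 2 * q by linear_combination (h.w2_inj e2).1]
      exact h.w2_b b
  · obtain ⟨x, rfl | rfl⟩ := (h.m1 _).1 hs <;> obtain ⟨y, rfl | rfl⟩ := (h.m2 _).1 hr
    · rw [h.cm]; group
    · rw [h.c2 h.hw']; simp [h.zero]
    · rw [h.c1 h.hwt]; simp
    · rw [h.w2_cw]; congr 1; exact w2_pe (by ring) (by linear_combination -h.qd.q4)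

theorem sylC : SylowIn 2 Q₁ C[Q₂] := by
  have := Sylow_setI_normal (cent_normal Q₂) (pHall_subl h.sym.nQ le_top h.syl)
  rwa [inf_comm, h.cS] at this

theorem w2_q (e : a + a = 2 * q) : a = q ∨ a = -q :=
  (h.qd.two (a - q) (by linear_combination e)).imp (fun e => by linear_combination e)
    fun e => by linear_combination e + h.qd.q4

/-- the elements of `S` with square `z` -/
theorem sqz' (hs : s ∈ S) (e : s * s = φ (2 * q, 2 * q)) :
    (s = φ (q, q) ∨ s = φ (-q, -q) ∨ s = φ (q, -q) ∨ s = φ (-q, q)) ∨ (∃ x, s = φ (x + 2 * q, x) * (w * t)) ∨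
      ∃ x, s = φ (x + 2 * q, -x) * w := by
  obtain ⟨⟨a, b⟩, rfl | rfl | rfl | rfl⟩ := (h.mem s).1 hs
  · obtain ⟨e1, e2⟩ := h.w2_inj ((h.w2_mul ..).symm.trans e)
    rcases h.w2_q e1 with rfl | rfl <;> rcases h.w2_q e2 with rfl | rfl <;> simp
  · have := congrArg Prod.fst (h.inj ((h.sq h.hw' h.w2 _).symm.trans e))
    exact .inr (.inr ⟨-b, by rw [neg_neg, show a = -b + 2 * q by simp at this; linear_combination this]⟩)
  · have := congrArg Prod.fst (h.inj ((h.sq h.ht h.t2 _).symm.trans e))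
    exact absurd (by simpa using this.symm) h.qd.q2
  · have := congrArg Prod.fst (h.inj ((h.sq h.hwt h.wt2 _).symm.trans e))
    exact .inr (.inl ⟨b, by rw [show a = b + 2 * q by simp at this; linear_combination this]⟩)

theorem w2_nz (x) : S ≤ N[zpowers (φ (x, x))] := fun s hs => mem_norm.2 (by
  rw [cj_zpowers]; rcases h.d1 hs x with e | e <;> rw [e]; exact zpowers_inv)

theorem w2_sq (e : y * y = φ (2 * q, 2 * q)) (g : G) : g * y * g⁻¹ * (g * y * g⁻¹) = φ (2 * q, 2 * q) := by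
  rw [conj_mul, e, h.w2_zg]

theorem w2_y1 : φ (q, q) * φ (q, q) = φ (2 * q, 2 * q) := (h.w2_mul ..).trans (w2_pe (by ring) (by ring))
theorem w2_y2 : φ (q, -q) * φ (q, -q) = φ (2 * q, 2 * q) :=
  (h.w2_mul ..).trans (w2_pe (by ring) (by linear_combination -h.qd.q4))
theorem w2_qq : q ≠ -q := fun e => h.qd.q2 (by linear_combination e)

theorem w2_mv {r : G} {ρ : ZMod m × ZMod m → ZMod m × ZMod m} (hr : ∀ v, r * φ v * r⁻¹ = φ (ρ v)) (h0 : (ρ (1, 0)).1 = 0) {v}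
    (e : φ v * r * (φ v * r) = φ (2 * q, 2 * q))
    (e1 : φ (1, 0) * (φ v * r) * (φ (1, 0))⁻¹ = φ v * r ∨ φ (1, 0) * (φ v * r) * (φ (1, 0))⁻¹ = (φ v * r)⁻¹) : False := by
  have e2 : (φ v * r)⁻¹ = φ (2 * q, 2 * q) * (φ v * r) := by
    rw [inv_eq_iff_mul_eq_one, ← mul_assoc, h.zcen, mul_assoc, e, h.zz h.qd]
  rw [h.c2 hr, e2, mul_eq_right, mul_left_inj] at e1
  rcases e1 with e1 | e1
  · exact h.w2_one (by simpa [h0] using congrArg Prod.fst (h.one e1))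
  · have := congrArg Prod.fst (h.inj e1)
    simp only [Prod.fst_sub, h0] at this
    exact h.qd.n2 (by linear_combination 2 * this + h.qd.q4)

theorem f2 : ¬ IsConj (φ (q, q)) (φ (q, -q)) := fun e => by
  obtain ⟨g, hg⟩ := isConj_iff.1 e
  have n2 : S ≤ N[zpowers (φ (q, -q))] := h.sym.w2_nz q
  obtain ⟨k, hk, e1⟩ := Sylow_trans (M := N[zpowers (φ (q, -q))]) (pHall_subl (by
    rw [← hg, ← cj_zpowers, N_cj]; exact cj_mono g (h.w2_nz q)) le_top (cj_top g ▸ pHallJ g h.syl))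
    (pHall_subl n2 le_top h.syl)
  have hn : k * g ∈ N[S] := mem_norm.2 (by rw [cj_mul, ← e1])
  have z1 : cj (k * g) (zpowers (φ (q, q))) = zpowers (φ (q, -q)) := by rw [cj_mul, cj_zpowers g, hg, cj_of_norm hk]
  generalize k * g = n at hn z1
  have nq : ¬ zpowers (φ (q, -q)) = zpowers (φ (q, q)) := fun e =>
    h.w2_qq (h.mA (zpowers_le.2 (h.w2_d q) (e.le (mem_zpowers _))))
  have pm : ∀ s ∈ S, s * (n * φ (q, -q) * n⁻¹) * s⁻¹ = n * φ (q, -q) * n⁻¹ ∨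
      s * (n * φ (q, -q) * n⁻¹) * s⁻¹ = (n * φ (q, -q) * n⁻¹)⁻¹ := fun s hs => by
    have e : s * (n * φ (q, -q) * n⁻¹) * s⁻¹ = n * (n⁻¹ * s * n * φ (q, -q) * (n⁻¹ * s * n)⁻¹) * n⁻¹ := by group
    rcases h.sym.d1 (conj_mem_of_norm' hn hs) q with e2 | e2 <;> simp only at e2 <;> rw [e, e2]
    exacts [.inl rfl, .inr (by group)]
  have sq := h.w2_sq h.w2_y2 n
  have z2 : cj n (zpowers (φ (q, -q))) = zpowers (φ (q, q)) := by
    have nn : cj n (zpowers (φ (q, -q))) ≠ zpowers (φ (q, -q)) := fun e => nq (cj_inj.1 (e.trans z1.symm))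
    rw [cj_zpowers] at nn ⊢
    rcases h.sqz' (conj_mem_of_norm hn (h.mφ _)) sq with (e | e | e | e) | ⟨x, e⟩ | ⟨x, e⟩
    · rw [e]
    · rw [e, ← h.w2_inv, zpowers_inv]
    · exact absurd (by rw [e]) nn
    · exact absurd (by rw [e, ← zpowers_inv, h.w2_inv, neg_neg]) nn
    · exact (h.w2_mv h.hwt (by simp) (e ▸ sq) (e ▸ pm _ (h.mφ _))).elim
    · exact (h.w2_mv h.hw' (by simp) (e ▸ sq) (e ▸ pm _ (h.mφ _))).elim
  exact nq (z1.symm.trans (cj_of_norm (sq_norm h.syl (h.w2_nz q) hn (mem_norm.2 (by rw [cj_mul, z1, z2])))))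

theorem w2_cen (hs : s ∈ S) (hc : s ∈ C[S]) : s = 1 ∨ s = φ (2 * q, 2 * q) := by
  have e1 := conj_eq_of_cent hc (h.mφ (1, 0))
  have e2 := mem_cent.1 hc _ h.mw
  have e3 := mem_cent.1 hc _ h.mt
  obtain ⟨⟨a, b⟩, rfl | rfl | rfl | rfl⟩ := (h.mem s).1 hs
  · rw [← mul_inv_eq_iff_eq_mul] at e2 e3
    obtain ⟨rfl, -⟩ := h.w2_inj ((h.hw _ _).symm.trans e2)
    have := congrArg Prod.fst (h.inj ((h.ht _).symm.trans e3))
    rcases h.qd.two b (by simp at this; linear_combination -this) with rfl | rfl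
    exacts [.inl h.zero, .inr rfl]
  · exact absurd (by simpa using (congrArg Prod.fst (h.inj ((h.c1 h.hw' _ _).symm.trans e1))).symm) h.w2_one
  · have := congrArg Prod.fst (h.inj ((h.c1 h.ht _ _).symm.trans e1))
    exact absurd (by simp at this; linear_combination -this) h.qd.n2
  · exact absurd (by simpa using (congrArg Prod.fst (h.inj ((h.c1 h.hwt _ _).symm.trans e1))).symm) h.w2_one

theorem w2_ca (hs : s ∈ S) : s ∈ C1[φ (2 * q, 0)] ↔ ∃ v, s = φ v ∨ s = φ v * t := by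
  rw [mem_cent1, ← mul_inv_eq_iff_eq_mul]
  constructor
  · intro e
    obtain ⟨v, rfl | rfl | rfl | rfl⟩ := (h.mem s).1 hs
    · exact ⟨v, .inl rfl⟩
    · exact absurd (by simpa using (congrArg Prod.fst (h.inj ((h.c1 h.hw' _ _).symm.trans e))).symm) h.qd.q2
    · exact ⟨v, .inr rfl⟩
    · exact absurd (by simpa using (congrArg Prod.fst (h.inj ((h.c1 h.hwt _ _).symm.trans e))).symm) h.qd.q2
  · rintro ⟨v, rfl | rfl⟩
    · rw [h.cm]; group
    · rw [h.c1 h.ht]; exact w2_pe (by linear_combination -h.qd.q4) neg_zero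

theorem sylA : SylowIn 2 (S ⊓ C1[φ (2 * q, 0)]) C1[φ (2 * q, 0)] := by
  have i2 : C1[φ (2 * q, 0)].relIndex S = 2 := by
    have nw : w ∉ C1[φ (2 * q, 0)] := fun e => by
      rw [mem_cent1, ← mul_inv_eq_iff_eq_mul, h.hw] at e
      exact h.qd.q2 (h.w2_inj e).1.symm
    have hφ : ∀ v, φ v ∈ C1[φ (2 * q, 0)] := fun v => (h.w2_ca (h.mφ v)).2 ⟨v, .inl rfl⟩
    have ht : t ∈ C1[φ (2 * q, 0)] := (h.w2_ca h.mt).2 ⟨0, .inr (by rw [h.zero, one_mul])⟩
    refine relIndex_eq_two_iff.2 ⟨w, h.mw, fun b hb => ?_⟩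
    obtain ⟨v, rfl | rfl | rfl | rfl⟩ := (h.mem b).1 hb
    · exact .inr ⟨hφ v, fun e => nw ((mul_mem_cancel_left (hφ v)).1 e)⟩
    · exact .inl ⟨by rw [mul_assoc, h.w2, mul_one]; exact hφ v, fun e => nw ((mul_mem_cancel_left (hφ v)).1 e)⟩
    · exact .inr ⟨mul_mem (hφ v) ht, fun e => nw ((mul_mem_cancel_left (mul_mem (hφ v) ht)).1 e)⟩
    · exact .inl ⟨by rw [h.wt, mul_assoc, mul_assoc, h.w2, mul_one]; exact mul_mem (hφ v) ht,
        fun e => nw ((mul_mem_cancel_right ht).1 ((mul_mem_cancel_left (hφ v)).1 e))⟩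
  refine max_pgroup_Sylow inf_le_right h.syl.pg.to_inf_left fun P hP h1 h2 => by_contra fun ne => ?_
  have c1 := card_inf_mul_relIndex C1[φ (2 * q, 0)] S
  rw [i2, inf_comm] at c1
  obtain ⟨j, hj⟩ := cardSg h1
  have c2 := proper_card (lt_of_le_of_ne h1 (Ne.symm ne))
  have c3 : #S ≤ #P := by
    rw [← c1, hj]
    refine Nat.mul_le_mul_left _ (by_contra fun e => ?_)
    have : #(S ⊓ C1[φ (2 * q, 0)]) * j ≤ #(S ⊓ C1[φ (2 * q, 0)]) * 1 := Nat.mul_le_mul_left _ (by omega)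
    omega
  obtain ⟨g, -, rfl⟩ := Sylow_trans (pHall_of_card_le h.syl le_top hP.pi c3) h.syl |>.imp fun g e => e
  have ha : g * φ (2 * q, 0) * g⁻¹ ∈ cj g P := conj_mem_cj g (h1 ⟨h.mφ _, cent1_self _⟩)
  rcases h.w2_cen ha (le_cent1_iff.1 (C1_conj g _ ▸ cj_mono g h2)) with e | e
  · exact h.qd.q2 (congrArg Prod.fst (h.one (by simpa using e)))
  · rw [← h.w2_zg g, mul_left_inj, mul_right_inj] at e
    exact h.qd.q2 (h.w2_inj e).2.symm

theorem w2_ti : IsConj (φ (-q, -q)) (φ (q, q)) := isConj_iff.2 ⟨t, (h.ht _).trans (by simp)⟩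

theorem f3 (x : ZMod m) : IsConj (φ (x + 2 * q, x) * (w * t)) (φ (q, q)) := by
  obtain ⟨k, hk, H⟩ := ext h.sylA h.syl.pg h.fwt
  obtain ⟨h1, h2⟩ := mem_inf.1 (H (φ (q, -q)) (h.mφ _) (mul_inv_eq_iff_eq_mul.1 ((h.hwt _).trans (by simp))).symm)
  have sq := h.w2_sq h.w2_y2 k
  have ck : IsConj (φ (q, -q)) (k * φ (q, -q) * k⁻¹) := isConj_iff.2 ⟨k, rfl⟩
  have c0 : IsConj (φ (x + 2 * q, x) * (w * t)) (k * φ (q, -q) * k⁻¹ * φ (2 * q, 0)) := by
    rw [← hk, conj_mul]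
    refine IsConj.trans (IsConj.symm (isConj_iff.2 ⟨φ (x + q, 0), ?_⟩)) (isConj_iff.2 ⟨k, rfl⟩)
    rw [h.c2 h.hwt, ← mul_assoc, ← h.add]; congr 2; ext <;> simp; ring
  rcases h.sqz' h1 sq with (e | e | e | e) | ⟨y, e⟩ | ⟨y, e⟩
  · exact absurd (e ▸ ck).symm h.f2
  · exact absurd ((e ▸ ck).trans h.w2_ti).symm h.f2
  · rw [e, h.w2_mul, show q + 2 * q = -q by linear_combination h.qd.q4, add_zero] at c0
    exact c0.trans h.w2_ti
  · rwa [e, h.w2_mul, show -q + 2 * q = q by ring, add_zero] at c0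
  · rw [e, mem_cent1, ← mul_inv_eq_iff_eq_mul, h.c1 h.hwt] at h2
    exact absurd (by simpa using (congrArg Prod.fst (h.inj h2)).symm) h.qd.q2
  · rw [e, mem_cent1, ← mul_inv_eq_iff_eq_mul, h.c1 h.hw'] at h2
    exact absurd (by simpa using (congrArg Prod.fst (h.inj h2)).symm) h.qd.q2

theorem sub (N : Subgroup G) [hN : N.Normal] (e : φ (q, q) ∈ N) : Q₁ ≤ N := fun s hs => by
  have hb : ∀ x, φ (x + 2 * q, x) * (w * t) ∈ N := fun x => by
    obtain ⟨g, hg⟩ := isConj_iff.1 (h.f3 x).symm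
    exact hg ▸ hN.conj_mem _ e g
  obtain ⟨x, rfl | rfl⟩ := (h.m1 _).1 hs
  exacts [h.w2_db x ▸ mul_mem (hb _) (inv_mem (hb _)), hb x]

/-- the elements of `Q₁` with square `z` are conjugate to `φ (q, q)` -/
theorem f4 (hy : y ∈ Q₁) (e : y * y = φ (2 * q, 2 * q)) : IsConj y (φ (q, q)) := by
  obtain ⟨x, rfl | rfl⟩ := (h.m1 _).1 hy
  · rcases h.w2_q (h.w2_inj ((h.w2_mul ..).symm.trans e)).1 with rfl | rfl
    exacts [IsConj.refl _, h.w2_ti]
  · exact h.f3 x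

theorem sc4 (hy : y ∈ Q₁) (e : y * y = φ (2 * q, 2 * q)) (hg : g * y * g⁻¹ ∈ S) : g * y * g⁻¹ ∈ Q₁ := by
  have sq := h.w2_sq e g
  have n2 : g * y * g⁻¹ ∉ Q₂ := fun e2 => h.f2 (((h.f4 hy e).symm.trans (isConj_iff.2 ⟨g, rfl⟩)).trans
    (h.sym.f4 e2 (sq.trans (w2_pe rfl (by linear_combination h.qd.q4)))))
  rcases h.sqz' hg sq with (e | e | e | e) | ⟨x, e⟩ | ⟨x, e⟩
  exacts [e ▸ h.w2_d _, e ▸ h.w2_d _, absurd ((h.m2 _).2 ⟨q, .inl e⟩) n2,
    absurd ((h.m2 _).2 ⟨-q, .inl (by rw [e, neg_neg])⟩) n2, e ▸ h.w2_b x, absurd ((h.m2 _).2 ⟨x, .inr e⟩) n2]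

theorem cjQ (hk : cj k Q₁ ≤ S) : k ∈ N[Q₁] := mem_norm_of_cj_le (by
  have hb : ∀ x, k * (φ (x + 2 * q, x) * (w * t)) * k⁻¹ ∈ Q₁ := fun x =>
    h.sc4 (h.w2_b x) (h.w2_b2 x) (hk (conj_mem_cj k (h.w2_b x)))
  rintro _ ⟨s, hs, rfl⟩
  obtain ⟨x, rfl | rfl⟩ := (h.m1 _).1 hs
  · have := mul_mem (hb x) (inv_mem (hb 0))
    rwa [conj_inv, conj_mul, ← h.w2_db] at this
  · exact hb x)

theorem w2_key (hn : Q₁ ≤ N[zpowers (g * φ (a, a) * g⁻¹)]) : g * φ (a, a) * g⁻¹ ∈ Q₁ := by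
  rw [← cj_zpowers, N_cj, le_cj_iff] at hn
  obtain ⟨k, hk, e⟩ := Sylow_Jsub (pHall_subl (h.w2_nz a) le_top h.syl) hn ((h.syl.pg.to_le h.Q1S).map _)
  rw [← cj_mul] at e
  rw [← conj_mem_iff_of_norm (h.cjQ e), show k * g⁻¹ * (g * φ (a, a) * g⁻¹) * (k * g⁻¹)⁻¹ = k * φ (a, a) * k⁻¹ by group]
  exact zpowers_le.2 (h.w2_d a) (conj_mem_of_norm hk (mem_zpowers _))

theorem w2_zmem (i : ℕ) : ∀ a : ZMod m, 2 ^ i * a = 0 → a ≠ 0 → φ (2 * q, 2 * q) ∈ zpowers (φ (a, a)) := by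
  induction i with
  | zero => intro a e ne; exact absurd (by simpa using e) ne
  | succ i ih =>
    intro a e ne
    by_cases e2 : a + a = 0
    · rw [(h.qd.two a (by linear_combination e2)).resolve_left ne]; exact mem_zpowers _
    · exact zpowers_le.2 (h.w2_mul .. ▸ mul_mem (mem_zpowers _) (mem_zpowers _)) (ih _ (by linear_combination e) e2)

theorem w2_ind (i : ℕ) : ∀ a : ZMod m, 2 ^ i * a = 0 → g * φ (a, a) * g⁻¹ ∈ S → g * φ (a, a) * g⁻¹ ∈ Q₁ := by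
  induction i with
  | zero => intro a e _; rw [show a = 0 by simpa using e, show φ (0, 0) = 1 from h.zero]; simp
  | succ i ih =>
    intro a e hs
    by_cases e2 : a + a = 0
    · rcases h.qd.two a (by linear_combination e2) with rfl | rfl
      · rw [show φ (0, 0) = 1 from h.zero]; simp
      · rw [h.w2_zg]; exact h.w2_d _
    have s2 : g * φ (a, a) * g⁻¹ * (g * φ (a, a) * g⁻¹) = g * φ (a + a, a + a) * g⁻¹ := by rw [conj_mul, h.w2_mul]
    have q2 := s2 ▸ ih (a + a) (by linear_combination e) (s2 ▸ mul_mem hs hs)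
    have n1 : g * φ (a, a) * g⁻¹ * (g * φ (a, a) * g⁻¹) ≠ 1 := fun e3 =>
      e2 (congrArg Prod.fst (h.one (by simpa using s2.symm.trans e3)))
    have hz : φ (2 * q, 2 * q) ∈ zpowers (g * φ (a, a) * g⁻¹) := by
      rw [← h.w2_zg g, ← cj_zpowers]; exact conj_mem_cj g (h.w2_zmem _ a e fun e3 => e2 (by rw [e3, add_zero]))
    have key : (∀ x, φ (x, x) * (g * φ (a, a) * g⁻¹) * (φ (x, x))⁻¹ = g * φ (a, a) * g⁻¹) →
        (∀ x, φ (x + 2 * q, x) * (w * t) * (g * φ (a, a) * g⁻¹) * (φ (x + 2 * q, x) * (w * t))⁻¹ =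
          φ (2 * q, 2 * q) * (g * φ (a, a) * g⁻¹)⁻¹) → g * φ (a, a) * g⁻¹ ∈ Q₁ := fun h1 h2 =>
      h.w2_key fun s hs => mem_norm_of_cj_le (by
        rw [cj_zpowers, zpowers_le]
        obtain ⟨x, rfl | rfl⟩ := (h.m1 _).1 hs
        · rw [h1]; exact mem_zpowers _
        · rw [h2]; exact mul_mem hz (inv_mem (mem_zpowers _)))
    generalize g * φ (a, a) * g⁻¹ = y at hs q2 n1 key
    obtain ⟨⟨b, c⟩, rfl | rfl | rfl | rfl⟩ := (h.mem y).1 hs
    · rw [h.w2_mul] at q2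
      rcases h.qd.two (b - c) (by linear_combination h.mA q2) with e3 | e3
      · rw [show b = c by linear_combination e3]; exact h.w2_d c
      · refine key (fun x => by rw [h.cm]; group) fun x => ?_
        rw [h.c1 h.hwt, h.w2_inv, h.w2_mul]
        exact w2_pe (by simp; linear_combination e3) (by simp; linear_combination -e3 - h.qd.q4)
    · refine key (fun x => by rw [h.c2 h.hw']; simp [h.zero]) fun x => ?_
      rw [h.w2_cw, eq_mul_inv_iff_mul_eq, show ∀ u v, φ u * w * (φ v * w) = φ u * (w * φ v * w⁻¹) * (w * w) from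
        fun u v => by group, h.hw, h.w2, mul_one, h.w2_mul]
      exact w2_pe (by ring) (by linear_combination -h.qd.q4)
    · exact absurd ((h.sq h.ht h.t2 _).trans (by rw [add_neg_cancel, h.zero])) n1
    · rw [h.sq h.hwt h.wt2] at q2 n1
      have e3 := h.mA (a := b + -c) (b := c + -b) q2
      rcases h.qd.two (b - c) (by linear_combination e3) with e3 | e3
      · obtain rfl : b = c := by linear_combination e3
        exact absurd (by rw [Prod.swap_prod_mk, add_neg_cancel, h.zero]) n1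
      · rw [show b = c + 2 * q by linear_combination e3]; exact h.w2_b c

theorem sc : Cfsg.IsStronglyClosed Q₁ S := ⟨h.Q1S, fun s hs g hg => by
  obtain ⟨x, rfl | rfl⟩ := (h.m1 _).1 hs
  · obtain ⟨n, e, -⟩ := h.hm
    refine h.w2_ind (n + 2) x ?_ hg
    have : ((m : ℕ) : ZMod m) = 0 := ZMod.natCast_self m
    rw [show (2 : ZMod m) ^ (n + 2) = ((2 ^ (n + 2) : ℕ) : ZMod m) by push_cast; rfl, ← e, this, zero_mul]
  · exact h.sc4 hs (h.w2_b2 x) hg⟩

end Gm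

end Cfsg.Agent.G2S
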