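import Cfsg.Agent.G2S.B

/-! `Q₁` is strongly closed in `S`, from the fusion facts `f2`, `f3` of `W2`. (helper9) -/

set_option autoImplicit false
set_option linter.unusedSectionVars false

namespace Cfsg.Agent.G2S

open Cfsg.Agent.BG Subgroup

variable {G : Type*} [Group G] [Finite G] {S Q₁ Q₂ : Subgroup G} {m : ℕ} {φ : ZMod m × ZMod m → G}
  {w t g s : G} {q : ZMod m}

namespace Gm
variable (h : Gm S m φ w t q Q₁ Q₂)
include h

theorem s_n1 : (1 : ZMod m) ≠ 0 := fun e => h.qd.n2 (by linear_combination 2 * e)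

theorem s_diag {u : ZMod m × ZMod m} (hu : φ u ∈ Q₁) : u.1 = u.2 := by
  obtain ⟨x, e | e⟩ := (h.m1 _).1 hu
  · rw [h.inj e]
  · have := h.toFg.c1 h.toFg.hwt (x + 2 * q, x) (1, 0)
    rw [← e, h.toFg.cm, mul_inv_cancel_right] at this
    exact absurd (by simpa using congrArg Prod.fst (h.inj this)) h.s_n1

theorem s_ma (x : ZMod m) : φ (x, x) ∈ Q₁ := (h.m1 _).2 ⟨x, .inl rfl⟩
theorem s_mb (x : ZMod m) : φ (x + 2 * q, x) * (w * t) ∈ Q₁ := (h.m1 _).2 ⟨x, .inr rfl⟩

theorem s_q {x : ZMod m} (e : x + x = 2 * q) : x = q ∨ x = -q :=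
  (h.qd.two (x - q) (by linear_combination e)).imp (fun e => by linear_combination e)
    fun e => by linear_combination e + h.qd.q4

variable (f2 : ¬ IsConj (φ (q, q)) (φ (q, -q))) (f3 : ∀ x, IsConj (φ (x + 2 * q, x) * (w * t)) (φ (q, q)))
  (f3' : ∀ x, IsConj (φ (x + 2 * q, -x) * w) (φ (q, -q)))
include f2 f3'

theorem s_four (hs : s ∈ S) (c : IsConj s (φ (q, q))) : s ∈ Q₁ := by
  have e : s * s = φ (2 * q, 2 * q) := by
    obtain ⟨g, rfl⟩ := isConj_iff.1 c.symm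
    rw [conj_mul, ← h.add, show ((q, q) + (q, q) : ZMod m × ZMod m) = (2 * q, 2 * q) by ext <;> simp [two_mul], h.zcen,
      mul_inv_cancel_right]
  obtain ⟨⟨x, y⟩, rfl | rfl | rfl | rfl⟩ := (h.mem s).1 hs
  · have e2 := h.inj ((h.add _ _).trans e)
    rcases h.s_q (congrArg Prod.fst e2) with rfl | rfl <;> rcases h.s_q (congrArg Prod.snd e2) with e3 | e3 <;>
      simp only at e3
    · rw [e3]; exact h.s_ma _
    · rw [e3] at c; exact absurd c.symm f2
    · rw [e3] at c; exact absurd (c.symm.trans (isConj_iff.2 ⟨w, h.hw _ _⟩)) f2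
    · rw [e3]; exact h.s_ma _
  · have e2 := congrArg Prod.fst (h.inj ((h.toFg.sq h.toFg.hw' h.w2 _).symm.trans e))
    have := f3' (-y)
    rw [neg_neg, show -y + 2 * q = x by simp at e2; linear_combination -e2] at this
    exact absurd (c.symm.trans this) f2
  · have e2 := (h.toFg.sq h.ht h.t2 _).symm.trans e
    rw [add_neg_cancel, h.toFg.zero] at e2
    exact absurd e2.symm (h.toFg.z1 h.qd)
  · have e2 := congrArg Prod.fst (h.inj ((h.toFg.sq h.toFg.hwt h.toFg.wt2 _).symm.trans e))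
    rw [show x = y + 2 * q by simp at e2; linear_combination e2]
    exact h.s_mb _

include f3

theorem s_norm {x : ZMod m} (hn : Q₁ ≤ N[zpowers (g * φ (x, x) * g⁻¹)]) : g * φ (x, x) * g⁻¹ ∈ Q₁ := by
  have := Nat.fact_prime_two
  have n1 : S ≤ N[zpowers (φ (x, x))] := fun s hs => mem_norm_of_cj_le fun y hy => by
    obtain ⟨a, ⟨k, rfl⟩, rfl⟩ := mem_cj'.1 hy
    rw [← conj_zpow]
    refine zpow_mem ?_ k
    rcases h.toFg.d1 hs x with e | e <;> rw [e]
    exacts [mem_zpowers _, inv_mem (mem_zpowers _)]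
  have ez : zpowers (g * φ (x, x) * g⁻¹) = cj g (zpowers (φ (x, x))) := (MonoidHom.map_zpowers (MulAut.conj g).toMonoidHom _).symm
  have q1 : Q₁ ≤ S := fun s hs => by
    obtain ⟨x, rfl | rfl⟩ := (h.m1 s).1 hs
    exacts [h.toFg.mφ _, mul_mem (h.toFg.mφ _) (mul_mem h.toFg.mw h.toFg.mt)]
  have n2 : cj g⁻¹ Q₁ ≤ N[zpowers (φ (x, x))] := fun y hy => by
    have := hn (mem_cj_inv.1 hy)
    rwa [ez, N_cj, conj_mem_cj_iff] at this
  obtain ⟨k, hk, e⟩ := Sylow_Jsub (pHall_subl n1 le_top h.syl) n2 ((h.syl.pg.to_le q1).cj _)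
  rw [← cj_mul] at e
  have hb : ∀ y, k * g⁻¹ * (φ (y + 2 * q, y) * (w * t)) * (k * g⁻¹)⁻¹ ∈ Q₁ := fun y =>
    h.s_four f2 f3' (e (conj_mem_cj _ (h.s_mb y))) ((isConj_iff.2 ⟨_, rfl⟩).symm.trans (f3 y))
  have n3 : k * g⁻¹ ∈ N[Q₁] := mem_norm_of_cj_le fun y hy => by
    obtain ⟨a, ha, rfl⟩ := mem_cj'.1 hy
    obtain ⟨x, rfl | rfl⟩ := (h.m1 a).1 ha
    · have := mul_mem (hb x) (inv_mem (hb 0))
      rwa [conj_inv, conj_mul, mul_inv_rev (φ _), mul_assoc (φ _), mul_inv_cancel_left, h.toFg.neg, ← h.add,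
        show ((x + 2 * q, x) + -(0 + 2 * q, 0) : ZMod m × ZMod m) = (x, x) by ext <;> simp] at this
    · exact hb x
  have := conj_mem_of_norm' n3 (zpowers_le.2 (h.s_ma x) (conj_mem_of_norm hk (mem_zpowers _)))
  simpa [mul_assoc] using this

theorem s_ind (j : ℕ) : ∀ x : ZMod m, 2 ^ j * x = 0 →
    (x ≠ 0 → φ (2 * q, 2 * q) ∈ zpowers (φ (x, x))) ∧ ∀ g, g * φ (x, x) * g⁻¹ ∈ S → g * φ (x, x) * g⁻¹ ∈ Q₁ := by
  have z0 : ∀ g, g * φ ((0 : ZMod m), (0 : ZMod m)) * g⁻¹ ∈ Q₁ := fun g => by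
    rw [show φ (0, 0) = 1 from h.toFg.zero]; simp
  induction j with
  | zero => intro x e; obtain rfl : x = 0 := by simpa using e
            exact ⟨fun n => absurd rfl n, fun g _ => z0 g⟩
  | succ j ih =>
    intro x e
    obtain ⟨i1, i2⟩ := ih (2 * x) (by linear_combination e)
    have sq : φ (2 * x, 2 * x) = φ (x, x) * φ (x, x) := by rw [← h.add]; congr 1; ext <;> simp [two_mul]
    by_cases x2 : 2 * x = 0
    · rcases h.qd.two x x2 with rfl | rfl
      · exact ⟨fun n => absurd rfl n, fun g _ => z0 g⟩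
      · exact ⟨fun _ => mem_zpowers _, fun g _ => by rw [h.zcen, mul_inv_cancel_right]; exact h.s_ma _⟩
    have zx : φ (2 * q, 2 * q) ∈ zpowers (φ (x, x)) :=
      zpowers_le.2 (sq ▸ mul_mem (mem_zpowers _) (mem_zpowers _)) (i1 x2)
    refine ⟨fun _ => zx, fun g hg => ?_⟩
    by_cases x4 : x + x = 2 * q
    · refine h.s_four f2 f3' hg ((isConj_iff.2 ⟨g, rfl⟩).symm.trans ?_)
      rcases h.s_q x4 with rfl | rfl
      exacts [IsConj.refl _, isConj_iff.2 ⟨t, by rw [h.ht]; simp⟩]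
    have zs : φ (2 * q, 2 * q) ∈ zpowers (g * φ (x, x) * g⁻¹) := by
      obtain ⟨k, hk⟩ := zx
      exact ⟨k, by simp only [conj_zpow] at hk ⊢; rw [hk, h.zcen, mul_inv_cancel_right]⟩
    have s2 : g * φ (x, x) * g⁻¹ * (g * φ (x, x) * g⁻¹) = g * φ (2 * x, 2 * x) * g⁻¹ := by rw [conj_mul, sq]
    have m2 : g * φ (x, x) * g⁻¹ * (g * φ (x, x) * g⁻¹) ∈ Q₁ := s2 ▸ i2 g (s2 ▸ mul_mem hg hg)
    have n1 : g * φ (x, x) * g⁻¹ * (g * φ (x, x) * g⁻¹) ≠ 1 := fun e =>
      x2 (congrArg Prod.fst (h.toFg.one (by simpa [s2] using e)))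
    have nz : g * φ (x, x) * g⁻¹ * (g * φ (x, x) * g⁻¹) ≠ φ (2 * q, 2 * q) := fun e => by
      rw [s2, mul_inv_eq_iff_eq_mul, ← h.zcen, mul_right_inj] at e
      exact x4 (by have := congrArg Prod.fst (h.inj e); simp only at this; linear_combination this)
    refine h.s_norm f2 f3 f3' ?_
    generalize g * φ (x, x) * g⁻¹ = s at *
    have key : (∀ y, φ (y, y) * s * (φ (y, y))⁻¹ = s) → (∀ y, φ (y + 2 * q, y) * (w * t) * s * (φ (y + 2 * q, y) * (w * t))⁻¹ = s⁻¹ ∨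
        φ (y + 2 * q, y) * (w * t) * s * (φ (y + 2 * q, y) * (w * t))⁻¹ = φ (2 * q, 2 * q) * s⁻¹) → Q₁ ≤ N[zpowers s] :=
      fun a b u hu => mem_norm_of_cj_le fun y hy => by
        obtain ⟨_, ⟨k, rfl⟩, rfl⟩ := mem_cj'.1 hy
        rw [← conj_zpow]
        refine zpow_mem ?_ k
        obtain ⟨y, rfl | rfl⟩ := (h.m1 u).1 hu
        · rw [a]; exact mem_zpowers _
        · rcases b y with e | e <;> rw [e]
          exacts [inv_mem (mem_zpowers _), mul_mem zs (inv_mem (mem_zpowers _))]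
    obtain ⟨⟨a, b⟩, rfl | rfl | rfl | rfl⟩ := (h.mem s).1 hg
    · refine key (fun y => by rw [h.toFg.cm, mul_inv_cancel_right]) fun y => ?_
      rw [h.toFg.c1 h.toFg.hwt, h.toFg.neg, ← h.add]
      have := h.s_diag ((h.add _ _).symm ▸ m2)
      rcases h.qd.two (a - b) (by simp at this; linear_combination this) with e | e
      · left; obtain rfl : a = b := by linear_combination e
        rfl
      · right; obtain rfl : a = b + 2 * q := by linear_combination e
        congr 1; ext <;> simp; linear_combination -h.qd.q4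
    · refine key (fun y => by rw [h.toFg.c2 h.toFg.hw']; simp [h.toFg.zero]) fun y => .inr ?_
      have e1 : w * t * (φ (a, b) * w) * (w * t)⁻¹ = φ (-b, -a) * w := by
        calc _ = w * t * φ (a, b) * (w * t)⁻¹ * (w * (t * w) * (w * t)⁻¹) := by group
          _ = _ := by rw [h.toFg.hwt, ← h.wt, mul_assoc w, mul_inv_cancel, mul_one]; simp
      have e2 : (φ (a, b) * w)⁻¹ = φ (-b, -a) * w := by
        rw [mul_inv_rev, h.toFg.neg, ← h.hw (-a) (-b), inv_mul_cancel_right, inv_eq_of_mul_eq_one_right h.w2]; rfl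
      calc _ = φ (y + 2 * q, y) * (w * t * (φ (a, b) * w) * (w * t)⁻¹) * (φ (y + 2 * q, y))⁻¹ := by group
        _ = _ := by
          rw [e1, e2, h.toFg.c2 h.toFg.hw']
          congr 2; ext <;> simp; linear_combination -h.qd.q4
    · rw [h.toFg.sq h.ht h.t2, add_neg_cancel, h.toFg.zero] at n1
      exact absurd rfl n1
    · rw [h.toFg.sq h.toFg.hwt h.toFg.wt2] at m2 n1 nz
      have := h.s_diag m2
      rcases h.qd.two (a - b) (by simp at this; linear_combination this) with e | e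
      · refine absurd ((congrArg φ ?_).trans h.toFg.zero) n1
        obtain rfl : a = b := by linear_combination e
        ext <;> simp
      · refine absurd (congrArg φ ?_) nz
        obtain rfl : a = b + 2 * q := by linear_combination e
        ext <;> simp; linear_combination -h.qd.q4

theorem sc' : IsStronglyClosed Q₁ S := by
  refine ⟨fun s hs => ?_, fun s hs g hg => ?_⟩
  · obtain ⟨x, rfl | rfl⟩ := (h.m1 s).1 hs
    exacts [h.toFg.mφ _, mul_mem (h.toFg.mφ _) (mul_mem h.toFg.mw h.toFg.mt)]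
  obtain ⟨x, rfl | rfl⟩ := (h.m1 s).1 hs
  · obtain ⟨n, -, e⟩ := h.hm
    exact (h.s_ind f2 f3 f3' (n + 2) x (by linear_combination x * h.qd.q4 - 4 * x * e)).2 g hg
  · exact h.s_four f2 f3' hg ((isConj_iff.2 ⟨g, rfl⟩).symm.trans (f3 x))

end Gm

end Cfsg.Agent.G2S
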