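import Cfsg.Agent.G2S.A
import Cfsg.Agent.Mult.CT4

/-! The outer automorphism group of `SL₂(q)` is abelian (`out_ab`). -/

set_option autoImplicit false

namespace Cfsg.Agent.G2S

open Cfsg.Agent.BG Subgroup Matrix Matrix.SpecialLinearGroup Cfsg.Agent.AutCl
open scoped _root_.Classical MatrixGroups commutatorElement

section
variable {F : Type*} [Field F] [Fintype F]

theorem w4_aut (θ : MulAut SL(2, F)) : ∃ (g : GL (Fin 2) F) (σ : F ≃+* F), θ = slConj g * slField σ := by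
  obtain ⟨p, hp⟩ := CharP.exists F
  haveI : Fact p.Prime := ⟨CharP.char_is_prime F p⟩
  obtain ⟨k, -, hk⟩ := FiniteField.card F p
  obtain ⟨g, σ, e⟩ := exists_semilinear_two (p := p) (quotAut θ)
  refine ⟨g, σ, MulEquiv.ext fun s =>
    (?_ : s ∈ θ.toMonoidHom.eqLocus (slConj g * slField σ : MulAut SL(2, F)).toMonoidHom)⟩
  refine (Classical.eq_top_of_transvection_mem _ fun i j hij c => ?_).ge (Subgroup.mem_top s)
  refine eq_of_mk_eq (p := p) (k := k) (by rw [← hk, ← map_pow, Mult.tv_pow_card, map_one])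
    (by rw [← hk, ← map_pow, Mult.tv_pow_card, map_one]) ?_
  simpa [quotAut_mk, diagAut_mk, fieldAut_mk] using congrArg (· (QuotientGroup.mk (transvection hij c))) e

theorem w4_comm (σ τ : F ≃+* F) : σ * τ = τ * σ := by
  obtain ⟨g, hg⟩ := IsCyclic.exists_monoid_generator (α := Fˣ)
  have k : ∀ ρ : F ≃+* F, ∃ a : ℕ, ρ g = (g : F) ^ a := fun ρ => by
    obtain ⟨a, ha⟩ := hg (Units.map ρ.toMonoidHom g)
    exact ⟨a, by simpa using (congrArg Units.val ha).symm⟩
  obtain ⟨a, ha⟩ := k σ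
  obtain ⟨b, hb⟩ := k τ
  ext x
  by_cases h0 : x = 0
  · simp [h0]
  obtain ⟨c, hc⟩ := hg (Units.mk0 x h0)
  obtain rfl : x = (g : F) ^ c := by simpa using (congrArg Units.val hc).symm
  show σ (τ _) = τ (σ _)
  simp only [map_pow, ha, hb, ← pow_mul]
  ring_nf

theorem w4_sq (σ : F ≃+* F) {d : F} (h0 : d ≠ 0) : IsSquare (d * σ d) := by
  by_cases h : IsSquare d
  · exact h.mul (h.map σ)
  have h' : ¬ IsSquare (σ d) := fun c => h (by simpa using c.map σ.symm)
  rw [← quadraticChar_one_iff_isSquare (mul_ne_zero h0 (by simpa using h0)), map_mul,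
    quadraticChar_neg_one_iff_not_isSquare.2 h, quadraticChar_neg_one_iff_not_isSquare.2 h']
  norm_num

omit [Fintype F] in
theorem w4_inn {x : GL (Fin 2) F} (hx : IsSquare x.1.det) : ∃ s : SL(2, F), slConj x = MulAut.conj s := by
  obtain ⟨r, hr⟩ := hx
  have h0 : r ≠ 0 := by rintro rfl; exact x.det_ne_zero (by simpa using hr)
  have hd : (r⁻¹ • x.1).det = 1 := by rw [det_smul, hr]; simp; field_simp
  refine ⟨⟨r⁻¹ • x.1, hd⟩, MulEquiv.ext fun g => ?_⟩
  refine ((MulAut.conj_apply (G := SL(2, F)) _ _).trans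
    ((mul_inv_eq_iff_eq_mul (G := SL(2, F))).2 (Subtype.ext ?_))).symm
  show (r⁻¹ • x.1) * g.1 = x.1 * g.1 * (x⁻¹).1 * (r⁻¹ • x.1)
  rw [smul_mul_assoc, mul_smul_comm, Units.inv_mul_cancel_right]

theorem w4_out (θ θ' : MulAut SL(2, F)) : ∃ s : SL(2, F), θ * θ' * θ⁻¹ * θ'⁻¹ = MulAut.conj s := by
  obtain ⟨g, σ, rfl⟩ := w4_aut θ
  obtain ⟨g', σ', rfl⟩ := w4_aut θ'
  have e : ∀ (a b : GL (Fin 2) F) (ρ τ : F ≃+* F), (slConj a * slField ρ * (slConj b * slField τ) : MulAut SL(2, F)) =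
      slConj (a * glField ρ b) * slField (ρ * τ) := fun a b ρ τ => by
    rw [map_mul, map_mul, mul_assoc, ← mul_assoc (slField ρ), slField_mul_slConj]; group
  have d : ∀ (ρ : F ≃+* F) (b : GL (Fin 2) F), (glField ρ b).1.det = ρ b.1.det := fun ρ b => by
    rw [glField_coe]; exact (RingEquiv.map_det ρ b.1).symm
  obtain ⟨s, hs⟩ := w4_inn (x := g * glField σ g' * (g' * glField σ' g)⁻¹) (by
    have h1 := g.det_ne_zero
    have h2 := g'.det_ne_zero
    have h3 : σ' g.1.det ≠ 0 := by simpa using h1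
    have : (g * glField σ g' * (g' * glField σ' g)⁻¹).1.det * (g'.1.det * σ' g.1.det) = g.1.det * σ g'.1.det := by
      rw [← d, ← d, ← det_mul, ← det_mul, ← det_mul, ← Units.val_mul, ← Units.val_mul, ← Units.val_mul,
        inv_mul_cancel_right]
    rw [eq_div_of_mul_eq (mul_ne_zero h2 h3) this, show g.1.det * σ g'.1.det / (g'.1.det * σ' g.1.det) =
      g.1.det * σ' g.1.det * (g'.1.det * σ g'.1.det) * ((g'.1.det * σ' g.1.det)⁻¹ * (g'.1.det * σ' g.1.det)⁻¹) by
        field_simp]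
    exact ((w4_sq σ' h1).mul (w4_sq σ h2)).mul (IsSquare.mul_self _))
  refine ⟨s, ?_⟩
  rw [← hs, mul_assoc, ← _root_.mul_inv_rev, e, e, w4_comm σ' σ, map_mul slConj (g * glField σ g'), map_inv]
  group
end

theorem out_ab' {G : Type*} [Group G] {L : Subgroup G} [L.Normal] {F : Type*} [Field F] [Fintype F]
    (e : L ≃* SL(2, F)) : commutator G ≤ L ⊔ C[L] := by
  have hn : (L ⊔ C[L]).Normal := inferInstance
  rw [commutator_def, commutator_le]
  intro a _ b _
  let ψ : G →* MulAut SL(2, F) := (MulAut.congr e).toMonoidHom.comp MulAut.conjNormal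
  have hψ : ∀ (g : G) (u : L), ψ g (e u) = e (MulAut.conjNormal g u) := fun g u => by simp [ψ]
  obtain ⟨s, hs⟩ := w4_out (ψ a) (ψ b)
  rw [← map_inv, ← map_inv, ← map_mul, ← map_mul, ← map_mul, ← commutatorElement_def] at hs
  have : (e.symm s : G)⁻¹ * ⁅a, b⁆ ∈ C[L] := fun u hu => by
    have h1 := hψ ⁅a, b⁆ ⟨u, hu⟩
    rw [hs, MulAut.conj_apply] at h1
    have h2 := congrArg (fun z => ((e.symm z : L) : G)) h1
    simp only [map_mul, map_inv, MulEquiv.symm_apply_apply, MulAut.conjNormal_apply, Subgroup.coe_mul,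
      Subgroup.coe_inv] at h2
    calc _ = (e.symm s : G)⁻¹ * ((e.symm s : G) * u * (e.symm s : G)⁻¹) * ⁅a, b⁆ := by
          rw [show (e.symm s : G)⁻¹ * ((e.symm s : G) * u * (e.symm s : G)⁻¹) = u * (e.symm s : G)⁻¹ by group]; group
      _ = _ := by rw [h2]; group
  simpa using mul_mem (mem_sup_left (e.symm s).2 : _ ∈ L ⊔ C[L]) (mem_sup_right this)

theorem out_ab {G : Type*} [Group G] [Finite G] {L : Subgroup G} [L.Normal] {F : Type} [Field F] [Fintype F]
    (hF : Odd (Fintype.card F)) (e : L ≃* SL(2, F)) : commutator G ≤ L ⊔ C[L] := out_ab' e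

end Cfsg.Agent.G2S
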